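import Cfsg.Agent.H10.O7T.Main

/-!
# S5514: the permutation representation of the presented Fi22 on 3510 points, a base, and
tabulated elements (helper10)
-/

set_option autoImplicit false
set_option maxHeartbeats 1600000

namespace Cfsg.Agent.H10.O7C

open Cfsg Cfsg.Agent.H35 Cfsg.Spor Cfsg.Agent.H10 Cfsg.Agent.H10.O7T

theorem hN : 0 < t1687_pd.N := by decide

theorem exists_rho : ∃ ρ : Fi22 →* Equiv.Perm (Fin t1687_pd.N),
    (∀ (w : List Fi22.Gen) (p : Fin t1687_pd.N),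
      t1687_pd.walk w p.val = ((ρ (uw fi22_gen w))⁻¹ p).val) := by
  obtain ⟨ρ, hw, -, -⟩ := tc_core U6T.u6_hyp hN
  exact ⟨ρ, hw⟩

/-- the permutation representation on the 3510 cosets -/
noncomputable def rho : Fi22 →* Equiv.Perm (Fin t1687_pd.N) := Classical.choose exists_rho

theorem rho_walk (w : List Fi22.Gen) (p : Fin t1687_pd.N) :
    t1687_pd.walk w p.val = ((rho (uw fi22_gen w))⁻¹ p).val :=
  Classical.choose_spec exists_rho w p

theorem card_Fi22 : Nat.card Fi22 = 64561751654400 := Fi22T.fi22_main.1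

instance finite_Fi22 : Finite Fi22 := Nat.finite_of_card_ne_zero (by rw [card_Fi22]; norm_num)

theorem card_Ho : Nat.card Ho = 4585351680 := by
  have hidx : Ho.index = 14080 := tc_index Fi22T.top_hyp
  have h1 := Subgroup.card_mul_index Ho
  rw [hidx, card_Fi22] at h1
  exact Nat.eq_of_mul_eq_mul_right (by norm_num : 0 < 14080) (h1.trans (by norm_num))

/-- an element fixing the six base points is trivial -/
theorem base_trivial (g : Fi22)
    (h1 : rho g ⟨976, by decide⟩ = ⟨976, by decide⟩) (h2 : rho g ⟨821, by decide⟩ = ⟨821, by decide⟩)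
    (h3 : rho g ⟨1518, by decide⟩ = ⟨1518, by decide⟩) (h4 : rho g ⟨974, by decide⟩ = ⟨974, by decide⟩)
    (h5 : rho g ⟨407, by decide⟩ = ⟨407, by decide⟩) (h6 : rho g ⟨666, by decide⟩ = ⟨666, by decide⟩) :
    g = 1 := by
  have hcard := card_Fi22
  let q1 : Fin t1687_pd.N := ⟨976, by decide⟩
  let q2 : Fin t1687_pd.N := ⟨821, by decide⟩
  let q3 : Fin t1687_pd.N := ⟨1518, by decide⟩
  let q4 : Fin t1687_pd.N := ⟨974, by decide⟩
  let q5 : Fin t1687_pd.N := ⟨407, by decide⟩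
  let q6 : Fin t1687_pd.N := ⟨666, by decide⟩
  let K2 : Subgroup Fi22 := ⊤ ⊓ stabOf rho q1
  let K3 : Subgroup Fi22 := K2 ⊓ stabOf rho q2
  let K4 : Subgroup Fi22 := K3 ⊓ stabOf rho q3
  let K5 : Subgroup Fi22 := K4 ⊓ stabOf rho q4
  let K6 : Subgroup Fi22 := K5 ⊓ stabOf rho q5
  let K7 : Subgroup Fi22 := K6 ⊓ stabOf rho q6
  have hK1 : ∀ w ∈ ol_ws1, uw fi22_gen w ∈ (⊤ : Subgroup Fi22) := fun w _ => Subgroup.mem_top _
  have hK2 : ∀ w ∈ ol_ws2, uw fi22_gen w ∈ K2 := fun w hwm =>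
    ⟨Subgroup.mem_top _, fixOK_mem fi22_gen rho rho_walk ol_ws2 _ ol_fix2 w hwm q1 (by decide)⟩
  have hK3 : ∀ w ∈ ol_ws3, uw fi22_gen w ∈ K3 := fun w hwm =>
    ⟨⟨Subgroup.mem_top _, fixOK_mem fi22_gen rho rho_walk ol_ws3 _ ol_fix3 w hwm q1 (by decide)⟩, fixOK_mem fi22_gen rho rho_walk ol_ws3 _ ol_fix3 w hwm q2 (by decide)⟩
  have hK4 : ∀ w ∈ ol_ws4, uw fi22_gen w ∈ K4 := fun w hwm =>
    ⟨⟨⟨Subgroup.mem_top _, fixOK_mem fi22_gen rho rho_walk ol_ws4 _ ol_fix4 w hwm q1 (by decide)⟩, fixOK_mem fi22_gen rho rho_walk ol_ws4 _ ol_fix4 w hwm q2 (by decide)⟩, fixOK_mem fi22_gen rho rho_walk ol_ws4 _ ol_fix4 w hwm q3 (by decide)⟩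
  have hK5 : ∀ w ∈ ol_ws5, uw fi22_gen w ∈ K5 := fun w hwm =>
    ⟨⟨⟨⟨Subgroup.mem_top _, fixOK_mem fi22_gen rho rho_walk ol_ws5 _ ol_fix5 w hwm q1 (by decide)⟩, fixOK_mem fi22_gen rho rho_walk ol_ws5 _ ol_fix5 w hwm q2 (by decide)⟩, fixOK_mem fi22_gen rho rho_walk ol_ws5 _ ol_fix5 w hwm q3 (by decide)⟩, fixOK_mem fi22_gen rho rho_walk ol_ws5 _ ol_fix5 w hwm q4 (by decide)⟩
  have hK6 : ∀ w ∈ ol_ws6, uw fi22_gen w ∈ K6 := fun w hwm =>
    ⟨⟨⟨⟨⟨Subgroup.mem_top _, fixOK_mem fi22_gen rho rho_walk ol_ws6 _ ol_fix6 w hwm q1 (by decide)⟩, fixOK_mem fi22_gen rho rho_walk ol_ws6 _ ol_fix6 w hwm q2 (by decide)⟩, fixOK_mem fi22_gen rho rho_walk ol_ws6 _ ol_fix6 w hwm q3 (by decide)⟩, fixOK_mem fi22_gen rho rho_walk ol_ws6 _ ol_fix6 w hwm q4 (by decide)⟩, fixOK_mem fi22_gen rho rho_walk ol_ws6 _ ol_fix6 w hwm q5 (by decide)⟩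
  have s1 : 3510 * Nat.card K2 ≤ Nat.card (⊤ : Subgroup Fi22) := by
    have := level_step rho ⊤ q1
      (Finset.univ.filter (fun p : Fin t1687_pd.N => Nat.ble 1 (fld 16 (ol_lab p.val) 0) = true))
      (fun x hx => by
        rw [Finset.mem_filter, Nat.ble_eq] at hx
        exact lvl_orbit fi22_gen rho rho_walk ⊤ ol_lab 0 ol_ws1 q1 hK1
          (allR_all _ _ 12 (by decide) ol_lvl1) _ x rfl hx.2)
    rw [card_filter_fin (fun i => Nat.ble 1 (fld 16 (ol_lab i) 0)) t1687_pd.N 12 (by decide)] at this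
    rw [show cntR (fun i => Nat.ble 1 (fld 16 (ol_lab i) 0)) t1687_pd.N 12 0 = 3510 from ol_cnt1]
      at this
    exact this
  have s2 : 2816 * Nat.card K3 ≤ Nat.card K2 := by
    have := level_step rho K2 q2
      (Finset.univ.filter (fun p : Fin t1687_pd.N => Nat.ble 1 (fld 16 (ol_lab p.val) 2) = true))
      (fun x hx => by
        rw [Finset.mem_filter, Nat.ble_eq] at hx
        exact lvl_orbit fi22_gen rho rho_walk K2 ol_lab 2 ol_ws2 q2 hK2
          (allR_all _ _ 12 (by decide) ol_lvl2) _ x rfl hx.2)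
    rw [card_filter_fin (fun i => Nat.ble 1 (fld 16 (ol_lab i) 2)) t1687_pd.N 12 (by decide)] at this
    rw [show cntR (fun i => Nat.ble 1 (fld 16 (ol_lab i) 2)) t1687_pd.N 12 0 = 2816 from ol_cnt2]
      at this
    exact this
  have s3 : 567 * Nat.card K4 ≤ Nat.card K3 := by
    have := level_step rho K3 q3
      (Finset.univ.filter (fun p : Fin t1687_pd.N => Nat.ble 1 (fld 16 (ol_lab p.val) 4) = true))
      (fun x hx => by
        rw [Finset.mem_filter, Nat.ble_eq] at hx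
        exact lvl_orbit fi22_gen rho rho_walk K3 ol_lab 4 ol_ws3 q3 hK3
          (allR_all _ _ 12 (by decide) ol_lvl3) _ x rfl hx.2)
    rw [card_filter_fin (fun i => Nat.ble 1 (fld 16 (ol_lab i) 4)) t1687_pd.N 12 (by decide)] at this
    rw [show cntR (fun i => Nat.ble 1 (fld 16 (ol_lab i) 4)) t1687_pd.N 12 0 = 567 from ol_cnt3]
      at this
    exact this
  have s4 : 320 * Nat.card K5 ≤ Nat.card K4 := by
    have := level_step rho K4 q4
      (Finset.univ.filter (fun p : Fin t1687_pd.N => Nat.ble 1 (fld 16 (ol_lab p.val) 6) = true))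
      (fun x hx => by
        rw [Finset.mem_filter, Nat.ble_eq] at hx
        exact lvl_orbit fi22_gen rho rho_walk K4 ol_lab 6 ol_ws4 q4 hK4
          (allR_all _ _ 12 (by decide) ol_lvl4) _ x rfl hx.2)
    rw [card_filter_fin (fun i => Nat.ble 1 (fld 16 (ol_lab i) 6)) t1687_pd.N 12 (by decide)] at this
    rw [show cntR (fun i => Nat.ble 1 (fld 16 (ol_lab i) 6)) t1687_pd.N 12 0 = 320 from ol_cnt4]
      at this
    exact this
  have s5 : 9 * Nat.card K6 ≤ Nat.card K5 := by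
    have := level_step rho K5 q5
      (Finset.univ.filter (fun p : Fin t1687_pd.N => Nat.ble 1 (fld 16 (ol_lab p.val) 8) = true))
      (fun x hx => by
        rw [Finset.mem_filter, Nat.ble_eq] at hx
        exact lvl_orbit fi22_gen rho rho_walk K5 ol_lab 8 ol_ws5 q5 hK5
          (allR_all _ _ 12 (by decide) ol_lvl5) _ x rfl hx.2)
    rw [card_filter_fin (fun i => Nat.ble 1 (fld 16 (ol_lab i) 8)) t1687_pd.N 12 (by decide)] at this
    rw [show cntR (fun i => Nat.ble 1 (fld 16 (ol_lab i) 8)) t1687_pd.N 12 0 = 9 from ol_cnt5]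
      at this
    exact this
  have s6 : 4 * Nat.card K7 ≤ Nat.card K6 := by
    have := level_step rho K6 q6
      (Finset.univ.filter (fun p : Fin t1687_pd.N => Nat.ble 1 (fld 16 (ol_lab p.val) 10) = true))
      (fun x hx => by
        rw [Finset.mem_filter, Nat.ble_eq] at hx
        exact lvl_orbit fi22_gen rho rho_walk K6 ol_lab 10 ol_ws6 q6 hK6
          (allR_all _ _ 12 (by decide) ol_lvl6) _ x rfl hx.2)
    rw [card_filter_fin (fun i => Nat.ble 1 (fld 16 (ol_lab i) 10)) t1687_pd.N 12 (by decide)] at this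
    rw [show cntR (fun i => Nat.ble 1 (fld 16 (ol_lab i) 10)) t1687_pd.N 12 0 = 4 from ol_cnt6]
      at this
    exact this
  have hK7 : Nat.card K7 ≤ 1 := by
    have htop : Nat.card (⊤ : Subgroup Fi22) = Nat.card Fi22 := Subgroup.card_top
    omega
  have hmem : g ∈ K7 := ⟨⟨⟨⟨⟨⟨Subgroup.mem_top _, h1⟩, h2⟩, h3⟩, h4⟩, h5⟩, h6⟩
  have hsub : Subsingleton K7 := Finite.card_le_one_iff_subsingleton.mp hK7
  have e1 : (⟨g, hmem⟩ : K7) = 1 := Subsingleton.elim _ _
  exact congrArg (fun x : K7 => x.1) e1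

/-- the subgroup preserves the 351 points -/
theorem inv_O (g : Fi22) (hg : g ∈ Ho) (p : Fin t1687_pd.N) :
    bIN (rho g p).val < 351 ↔ bIN p.val < 351 := by
  let S : Subgroup Fi22 :=
    { carrier := {g | ∀ p : Fin t1687_pd.N, bIN (rho g p).val < 351 ↔ bIN p.val < 351}
      one_mem' := fun p => by rw [map_one]; rfl
      mul_mem' := fun {a b} ha hb p => by
        rw [map_mul, Equiv.Perm.mul_apply]
        exact (ha _).trans (hb p)
      inv_mem' := fun {a} ha p => by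
        have h := ha (rho a⁻¹ p)
        rw [← Equiv.Perm.mul_apply, ← map_mul, mul_inv_cancel, map_one] at h
        exact h.symm }
  have hKS : Ho ≤ S := by
    rw [Subgroup.closure_le]
    rintro _ ⟨w, hwm, rfl⟩
    have h1 : (uw fi22_gen w)⁻¹ ∈ S := by
      intro p
      rw [map_inv, ← rho_walk]
      have ha := allR_all _ 3510 12 (by norm_num) ol_inv p.val p.isLt
      have hb := allR_all _ 3510 12 (by norm_num) ol_inv2 p.val p.isLt
      rw [List.all_eq_true] at ha hb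
      have ha' := ha w hwm
      have hb' := hb w hwm
      rw [Bool.or_eq_true] at ha' hb'
      constructor
      · intro h2
        rcases hb' with h3 | h3
        · rw [Nat.ble_eq_true_of_le h2] at h3
          exact absurd h3 (by decide)
        · exact Nat.le_of_ble_eq_true h3
      · intro h2
        rcases ha' with h3 | h3
        · rw [Nat.ble_eq_true_of_le h2] at h3
          exact absurd h3 (by decide)
        · exact Nat.le_of_ble_eq_true h3
    have h2 := S.inv_mem h1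
    rw [inv_inv] at h2
    exact h2
  exact hKS hg p

end Cfsg.Agent.H10.O7C
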