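import Cfsg.Agent.H10.O7C.Defs

/-!
# S5514: kernel checks, part 1c (helper10)
-/

set_option autoImplicit false
set_option maxHeartbeats 0

namespace Cfsg.Agent.H10.O7C

open Cfsg Cfsg.Agent.H35 Cfsg.Spor Cfsg.Agent.H10 Cfsg.Agent.H10.O7T

theorem tab_ok_1_0 : allR (tabF 1) 3510 10 0 = true := by decide +kernel

theorem tab_ok_1_1 : allR (tabF 1) 3510 10 1024 = true := by decide +kernel

theorem tab_ok_1_2 : allR (tabF 1) 3510 10 2048 = true := by decide +kernel

theorem tab_ok_1_3 : allR (tabF 1) 3510 10 3072 = true := by decide +kernel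

theorem tab_ok_2_0 : allR (tabF 2) 3510 10 0 = true := by decide +kernel

theorem tab_ok_2_1 : allR (tabF 2) 3510 10 1024 = true := by decide +kernel

theorem tab_ok_2_2 : allR (tabF 2) 3510 10 2048 = true := by decide +kernel

theorem tab_ok_2_3 : allR (tabF 2) 3510 10 3072 = true := by decide +kernel

theorem tab_ok_5_0 : allR (tabF 5) 3510 10 0 = true := by decide +kernel

theorem tab_ok_5_1 : allR (tabF 5) 3510 10 1024 = true := by decide +kernel

theorem tab_ok_5_2 : allR (tabF 5) 3510 10 2048 = true := by decide +kernel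

theorem tab_ok_5_3 : allR (tabF 5) 3510 10 3072 = true := by decide +kernel

theorem tab_ok_13_0 : allR (tabF 13) 3510 10 0 = true := by decide +kernel

theorem tab_ok_13_1 : allR (tabF 13) 3510 10 1024 = true := by decide +kernel

theorem tab_ok_13_2 : allR (tabF 13) 3510 10 2048 = true := by decide +kernel

theorem tab_ok_13_3 : allR (tabF 13) 3510 10 3072 = true := by decide +kernel

end Cfsg.Agent.H10.O7C
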