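import Cfsg.Agent.H10.O7C.Defs

/-!
# S5514: kernel checks, part 2 (helper10)
-/

set_option autoImplicit false
set_option maxHeartbeats 0

namespace Cfsg.Agent.H10.O7C

open Cfsg Cfsg.Agent.H35 Cfsg.Spor Cfsg.Agent.H10 Cfsg.Agent.H10.O7T

theorem noA_ok : wEl.all noA = true := by decide +kernel

theorem pc_ok : (List.range 9).all (fun i => cubeChk i && (List.range i).all (fun j => pcChk i j)) = true := by
  decide +kernel

end Cfsg.Agent.H10.O7C
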