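import Cfsg.Agent.H10.O7C.Defs

/-!
# S5514: kernel checks, part 3 (helper10)
-/

set_option autoImplicit false
set_option maxHeartbeats 0

namespace Cfsg.Agent.H10.O7C

open Cfsg Cfsg.Agent.H35 Cfsg.Spor Cfsg.Agent.H10 Cfsg.Agent.H10.O7T

theorem sort_ok1 : allR sgChk 19683 15 0 = true := by decide +kernel

theorem sort_ok2_0 : allR sortChk 19682 12 0 = true := by decide +kernel

theorem sort_ok2_1 : allR sortChk 19682 12 4096 = true := by decide +kernel

theorem sort_ok2_2 : allR sortChk 19682 12 8192 = true := by decide +kernel

theorem sort_ok2_3 : allR sortChk 19682 12 12288 = true := by decide +kernel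

theorem sort_ok2_4 : allR sortChk 19682 12 16384 = true := by decide +kernel

end Cfsg.Agent.H10.O7C
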