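import Cfsg.Agent.H10.O7C.Defs

/-!
# S5514: kernel checks, part 4 (helper10)
-/

set_option autoImplicit false
set_option maxHeartbeats 0

namespace Cfsg.Agent.H10.O7C

open Cfsg Cfsg.Agent.H35 Cfsg.Spor Cfsg.Agent.H10 Cfsg.Agent.H10.O7T

theorem cert_ok_0 : allR chk 19683 12 0 = true := by decide +kernel

theorem cert_ok_1 : allR chk 19683 12 4096 = true := by decide +kernel

theorem cert_ok_2 : allR chk 19683 12 8192 = true := by decide +kernel

theorem cert_ok_3 : allR chk 19683 12 12288 = true := by decide +kernel

theorem cert_ok_4 : allR chk 19683 12 16384 = true := by decide +kernel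

end Cfsg.Agent.H10.O7C
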