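import Cfsg.Agent.H10.O7C.Defs

/-!
# S5514: kernel checks, part 5 (helper10)
-/

set_option autoImplicit false
set_option maxHeartbeats 0

namespace Cfsg.Agent.H10.O7C

open Cfsg Cfsg.Agent.H35 Cfsg.Spor Cfsg.Agent.H10 Cfsg.Agent.H10.O7T

theorem g_ok : allR gChk 351 9 0 = true := by decide +kernel

theorem r_ok_0 : allR rChk 123201 12 0 = true := by decide +kernel

theorem r_ok_1 : allR rChk 123201 12 4096 = true := by decide +kernel

theorem r_ok_2 : allR rChk 123201 12 8192 = true := by decide +kernel

theorem r_ok_3 : allR rChk 123201 12 12288 = true := by decide +kernel

theorem r_ok_4 : allR rChk 123201 12 16384 = true := by decide +kernel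

theorem r_ok_5 : allR rChk 123201 12 20480 = true := by decide +kernel

theorem r_ok_6 : allR rChk 123201 12 24576 = true := by decide +kernel

theorem r_ok_7 : allR rChk 123201 12 28672 = true := by decide +kernel

theorem r_ok_8 : allR rChk 123201 12 32768 = true := by decide +kernel

theorem r_ok_9 : allR rChk 123201 12 36864 = true := by decide +kernel

theorem r_ok_10 : allR rChk 123201 12 40960 = true := by decide +kernel

theorem r_ok_11 : allR rChk 123201 12 45056 = true := by decide +kernel

theorem r_ok_12 : allR rChk 123201 12 49152 = true := by decide +kernel

theorem r_ok_13 : allR rChk 123201 12 53248 = true := by decide +kernel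

theorem r_ok_14 : allR rChk 123201 12 57344 = true := by decide +kernel

theorem r_ok_15 : allR rChk 123201 12 61440 = true := by decide +kernel

theorem r_ok_16 : allR rChk 123201 12 65536 = true := by decide +kernel

theorem r_ok_17 : allR rChk 123201 12 69632 = true := by decide +kernel

theorem r_ok_18 : allR rChk 123201 12 73728 = true := by decide +kernel

theorem r_ok_19 : allR rChk 123201 12 77824 = true := by decide +kernel

theorem r_ok_20 : allR rChk 123201 12 81920 = true := by decide +kernel

theorem r_ok_21 : allR rChk 123201 12 86016 = true := by decide +kernel

theorem r_ok_22 : allR rChk 123201 12 90112 = true := by decide +kernel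

theorem r_ok_23 : allR rChk 123201 12 94208 = true := by decide +kernel

theorem r_ok_24 : allR rChk 123201 12 98304 = true := by decide +kernel

theorem r_ok_25 : allR rChk 123201 12 102400 = true := by decide +kernel

theorem r_ok_26 : allR rChk 123201 12 106496 = true := by decide +kernel

theorem r_ok_27 : allR rChk 123201 12 110592 = true := by decide +kernel

theorem r_ok_28 : allR rChk 123201 12 114688 = true := by decide +kernel

theorem r_ok_29 : allR rChk 123201 12 118784 = true := by decide +kernel

theorem r_ok_30 : allR rChk 123201 12 122880 = true := by decide +kernel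

end Cfsg.Agent.H10.O7C
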