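import Cfsg.Agent.H10.O7C.Defs

/-!
# S5514: kernel checks, part 6 (helper10)
-/

set_option autoImplicit false
set_option maxHeartbeats 0

namespace Cfsg.Agent.H10.O7C

open Cfsg Cfsg.Agent.H35 Cfsg.Spor Cfsg.Agent.H10 Cfsg.Agent.H10.O7T

theorem root_ok_0 : rootChk 0 = true := by decide +kernel

theorem root_ok_1 : rootChk 1 = true := by decide +kernel

theorem root_ok_2 : rootChk 2 = true := by decide +kernel

theorem root_ok_3 : rootChk 3 = true := by decide +kernel

theorem root_ok_4 : rootChk 4 = true := by decide +kernel

theorem root_ok_5 : rootChk 5 = true := by decide +kernel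

theorem root_ok_6 : rootChk 6 = true := by decide +kernel

end Cfsg.Agent.H10.O7C
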