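import Cfsg.Agent.H10.O7C.Data
import Cfsg.Agent.H9.J2.Enum

/-!
# S5514: checkers for the Sylow 3-subgroup of `Ω₇(3)` inside Fi22 (helper10)
-/

set_option autoImplicit false

namespace Cfsg.Agent.H10.O7C

open Cfsg Cfsg.Agent.H35 Cfsg.Spor Cfsg.Agent.H10 Cfsg.Agent.H10.O7T
open Cfsg.Agent.H9.J2 (frcN frcN_eq)

/-- the six base points -/
def basePts : List ℕ := [976, 821, 1518, 974, 407, 666]

/-- the (inverse) action of the element `m` on the points -/
noncomputable def elF (m p : ℕ) : ℕ := Nat.land (Nat.shiftRight (elRow p) (Nat.mul 12 m)) 4095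

/-- the element `m` of Fi22 -/
noncomputable def elG (m : ℕ) : Fi22 := uw fi22_gen (wEl.getD m [])

/-- the table of the element `m` is the action of its word, at the point `p` -/
noncomputable def tabF (m p : ℕ) : Bool :=
  Nat.beq (elF m p) (t1687_pd.walk (wEl.getD m []) p)

/-- the word avoids the generator `a` -/
def noA (w : List Fi22.Gen) : Bool :=
  w.all (fun x => match x with
    | .a => false
    | _ => true)

/-- the `k`-th power of the element `m`, `k < 3` -/
noncomputable def appK (m k p : ℕ) : ℕ :=
  cond (Nat.beq k 0) p (cond (Nat.beq k 1) (elF m p) (elF m (elF m p)))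

/-- the action of the normal form `a₁^{e₁} ⋯ aₙ^{eₙ}` with digits `E` (the first factor acts
first) -/
noncomputable def nfFn : ℕ → ℕ → ℕ → ℕ
  | 0, _, p => p
  | n + 1, E, p => frcN (nfFn n E p) (fun q => appK n (E / 3 ^ n % 3) q)

/-- the action of the normal form `E` -/
noncomputable def nfF (E p : ℕ) : ℕ := nfFn 9 E p

/-- the normal form of `aᵢ aⱼ aᵢ⁻¹` -/
def pcE (i j : ℕ) : ℕ := Nat.land (Nat.shiftRight pcTab (Nat.mul 16 (Nat.add (Nat.mul 9 i) j))) 65535

/-- `aᵢ aⱼ = nf aᵢ` on the base -/
noncomputable def pcChk (i j : ℕ) : Bool :=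
  basePts.all (fun b => Nat.beq (elF j (elF i b)) (elF i (nfFn i (pcE i j) b)))

/-- `aᵢ³ = 1` on the base -/
noncomputable def cubeChk (i : ℕ) : Bool := basePts.all (fun b => Nat.beq (elF i (elF i (elF i b))) b)

/-- the key of a normal form: the images of three points -/
noncomputable def keyF (E : ℕ) : ℕ :=
  Nat.add (nfF E 2) (Nat.mul 4096 (Nat.add (nfF E 4) (Nat.mul 4096 (nfF E 7))))

noncomputable def piF (k : ℕ) : ℕ :=
  Nat.land (Nat.shiftRight (piRow (k / 32)) (Nat.mul 16 (k % 32))) 65535

noncomputable def sgF (E : ℕ) : ℕ :=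
  Nat.land (Nat.shiftRight (sgRow (E / 32)) (Nat.mul 16 (E % 32))) 65535

/-- the keys of consecutive normal forms in the sorted order increase -/
noncomputable def sortChk (k : ℕ) : Bool :=
  frcN (piF k) (fun E1 => frcN (piF (Nat.succ k)) (fun E2 => Nat.blt (keyF E1) (keyF E2)))

/-- the sorting permutation has an inverse -/
noncomputable def sgChk (E : ℕ) : Bool :=
  frcN (sgF E) (fun s => Nat.blt s 19683 && Nat.beq (piF s) E)

/-- the certificate entry of a normal form -/
noncomputable def ceF (E : ℕ) : ℕ :=
  Nat.land (Nat.shiftRight (ceRow (E / 16)) (Nat.mul 32 (E % 16))) 4294967295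

/-- the depth in the fusion forest -/
noncomputable def depF (E : ℕ) : ℕ := ceF E / 256 % 256

/-- the fusion forest check: the normal form `E` is the identity, or its cube moves a base point,
or it is a representative, or it is conjugate by one of the fourteen elements to a normal form of
smaller depth -/
noncomputable def chk (E : ℕ) : Bool :=
  frcN (ceF E) (fun c => frcN (c % 16) (fun kind => frcN (c / 16 % 16) (fun aux =>
    frcN (c / 65536) (fun par =>
    (Nat.beq kind 0 && Nat.beq E 0) ||
    ((Nat.beq kind 1 && frcN (basePts.getD aux 976)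
        (fun b => !(Nat.beq (nfF E (nfF E (nfF E b))) b))) ||
    ((Nat.beq kind 2 && Nat.beq (rootL.getD aux 19683) E) ||
    ((Nat.beq kind 3 && (Nat.blt par 19683 && (Nat.blt (depF par) (depF E) && (Nat.blt aux 14 &&
        basePts.all (fun b => Nat.beq (nfF E (elF aux b)) (elF aux (nfF par b))))))) ||
    (Nat.beq kind 4 && (Nat.blt par 19683 && (Nat.blt (depF par) (depF E) && (Nat.blt aux 14 &&
        basePts.all (fun b => Nat.beq (nfF par (elF aux b)) (elF aux (nfF E b))))))))))))))

/-- the orthogonality relation on the indices of the 351 points -/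
noncomputable def rB (i j : ℕ) : Bool :=
  Nat.beq (Nat.land (Nat.shiftRight (rRow i) j) 1) 1

/-- the tabulated action of the generator `x` on the indices -/
noncomputable def gI (x i : ℕ) : ℕ := Nat.land (Nat.shiftRight (gRow i) (Nat.mul 9 x)) 511

/-- the tabulated action is the action -/
noncomputable def gChk (i : ℕ) : Bool :=
  (List.range 8).all (fun x => Nat.beq (gI x i) (bIN (t1687_pd.walk (t1685_sw.getD x []) (bON i))))

/-- equality of booleans -/
def beqB (a b : Bool) : Bool := cond a b (!b)

/-- the relation is invariant under the generators -/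
noncomputable def rChk (k : ℕ) : Bool :=
  frcN (k / 351) (fun i => frcN (k % 351) (fun j =>
    (List.range 8).all (fun x => beqB (rB (gI x i) (gI x j)) (rB i j))))

/-- the number of fixed points -/
def inv1F (F : ℕ → ℕ) : ℕ := cntR (fun p => Nat.beq (F p) p) 3510 12 0

/-- the number of the 351 points orthogonal to their image -/
noncomputable def inv2F (F : ℕ → ℕ) : ℕ :=
  cntR (fun p => Nat.blt (bIN p) 351 && rB (bIN p) (bIN (F p))) 3510 12 0

/-- a representative: it has order 3 and the given invariants, as has its square -/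
noncomputable def rootChk (j : ℕ) : Bool :=
  frcN (rootL.getD j 0) (fun r =>
    basePts.all (fun b => Nat.beq (nfF r (nfF r (nfF r b))) b) &&
    (!(Nat.beq (nfF r 976) 976) &&
    (Nat.beq (inv1F (nfF r)) (invL.getD j (0, 0)).1 &&
    (Nat.beq (inv2F (nfF r)) (invL.getD j (0, 0)).2 &&
    (Nat.beq (inv1F (fun p => nfF r (nfF r p))) (invL.getD j (0, 0)).1 &&
    Nat.beq (inv2F (fun p => nfF r (nfF r p))) (invL.getD j (0, 0)).2)))))

end Cfsg.Agent.H10.O7C
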