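import Cfsg.Agent.H10.O7C.Chk1a
import Cfsg.Agent.H10.O7C.Chk1b
import Cfsg.Agent.H10.O7C.Chk1c
import Cfsg.Agent.H10.O7C.Chk1d
import Cfsg.Agent.H10.O7C.Chk2
import Cfsg.Agent.H10.O7C.Chk3
import Cfsg.Agent.H10.O7C.Chk4
import Cfsg.Agent.H10.O7C.Chk5
import Cfsg.Agent.H10.O7C.Chk6
import Cfsg.Agent.H40.O7PC

/-!
# S5514: the Sylow 3-subgroup of `Ω₇(3)` inside Fi22: elements, normal forms, order (helper10)
-/

set_option autoImplicit false

namespace Cfsg.Agent.H10.O7C

open Cfsg Cfsg.Agent.H35 Cfsg.Spor Cfsg.Agent.H10 Cfsg.Agent.H10.O7T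
open Cfsg.Agent.H9.J2 (frcN frcN_eq)
open Cfsg.Agent.H40.O7G (nfProd)

/-! ## elements and functions -/

/-- the inverse of `g` acts on the points as `f` -/
def Rl (g : Fi22) (f : ℕ → ℕ) : Prop := ∀ p : Fin t1687_pd.N, ((rho g)⁻¹ p).val = f p.val

theorem Rl.word (w : List Fi22.Gen) : Rl (uw fi22_gen w) (t1687_pd.walk w) :=
  fun p => (rho_walk w p).symm

theorem Rl.one : Rl 1 (fun p => p) := by
  intro p
  rw [map_one, inv_one, Equiv.Perm.one_apply]

theorem Rl.mul {g h : Fi22} {f k : ℕ → ℕ} (hg : Rl g f) (hh : Rl h k) :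
    Rl (g * h) (fun p => k (f p)) := by
  intro p
  rw [map_mul, mul_inv_rev, Equiv.Perm.mul_apply, hh, hg]

theorem Rl.congr {g : Fi22} {f k : ℕ → ℕ} (hg : Rl g f) (h : ∀ p, p < 3510 → f p = k p) :
    Rl g k :=
  fun p => (hg p).trans (h p.val p.isLt)

theorem Rl.lt {g : Fi22} {f : ℕ → ℕ} (hg : Rl g f) {p : ℕ} (hp : p < 3510) : f p < 3510 := by
  have h : ((rho g)⁻¹ ⟨p, hp⟩).val = f p := hg ⟨p, hp⟩
  rw [← h]
  exact Fin.isLt _

theorem Rl.eq {g h : Fi22} {f k : ℕ → ℕ} (hg : Rl g f) (hh : Rl h k)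
    (hb : ∀ b ∈ basePts, f b = k b) : g = h := by
  have key : ∀ (b : ℕ) (hlt : b < 3510), b ∈ basePts → rho (h * g⁻¹) ⟨b, hlt⟩ = ⟨b, hlt⟩ := by
    intro b hlt hm
    have e : (rho g)⁻¹ ⟨b, hlt⟩ = (rho h)⁻¹ ⟨b, hlt⟩ :=
      Fin.ext ((hg ⟨b, hlt⟩).trans ((hb b hm).trans (hh ⟨b, hlt⟩).symm))
    rw [map_mul, map_inv, Equiv.Perm.mul_apply, e]
    exact (rho h).apply_symm_apply _
  have h1 := base_trivial (h * g⁻¹) (key 976 (by decide) (by simp [basePts]))
    (key 821 (by decide) (by simp [basePts])) (key 1518 (by decide) (by simp [basePts]))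
    (key 974 (by decide) (by simp [basePts])) (key 407 (by decide) (by simp [basePts]))
    (key 666 (by decide) (by simp [basePts]))
  exact (mul_inv_eq_one.1 h1).symm

theorem Rl.ne_one {g : Fi22} {f : ℕ → ℕ} (hg : Rl g f) {p : ℕ} (hp : p < 3510) (h : f p ≠ p) :
    g ≠ 1 := by
  rintro rfl
  have h1 : ((rho (1 : Fi22))⁻¹ (⟨p, hp⟩ : Fin t1687_pd.N)).val = f p := hg ⟨p, hp⟩
  rw [map_one, inv_one, Equiv.Perm.one_apply] at h1
  exact h h1.symm

/-! ## the fourteen elements -/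

theorem tab_all : ∀ m, m < 14 → ∀ p, p < 3510 → tabF m p = true := by
  intro m hm
  interval_cases m
  · exact allR_blocks _ 3510 10 4 (by
      intro k hk
      interval_cases k
      exacts [tab_ok_0_0, tab_ok_0_1, tab_ok_0_2, tab_ok_0_3]) (by norm_num)
  · exact allR_blocks _ 3510 10 4 (by
      intro k hk
      interval_cases k
      exacts [tab_ok_1_0, tab_ok_1_1, tab_ok_1_2, tab_ok_1_3]) (by norm_num)
  · exact allR_blocks _ 3510 10 4 (by
      intro k hk
      interval_cases k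
      exacts [tab_ok_2_0, tab_ok_2_1, tab_ok_2_2, tab_ok_2_3]) (by norm_num)
  · exact allR_blocks _ 3510 10 4 (by
      intro k hk
      interval_cases k
      exacts [tab_ok_3_0, tab_ok_3_1, tab_ok_3_2, tab_ok_3_3]) (by norm_num)
  · exact allR_blocks _ 3510 10 4 (by
      intro k hk
      interval_cases k
      exacts [tab_ok_4_0, tab_ok_4_1, tab_ok_4_2, tab_ok_4_3]) (by norm_num)
  · exact allR_blocks _ 3510 10 4 (by
      intro k hk
      interval_cases k
      exacts [tab_ok_5_0, tab_ok_5_1, tab_ok_5_2, tab_ok_5_3]) (by norm_num)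
  · exact allR_blocks _ 3510 10 4 (by
      intro k hk
      interval_cases k
      exacts [tab_ok_6_0, tab_ok_6_1, tab_ok_6_2, tab_ok_6_3]) (by norm_num)
  · exact allR_blocks _ 3510 10 4 (by
      intro k hk
      interval_cases k
      exacts [tab_ok_7_0, tab_ok_7_1, tab_ok_7_2, tab_ok_7_3]) (by norm_num)
  · exact allR_blocks _ 3510 10 4 (by
      intro k hk
      interval_cases k
      exacts [tab_ok_8_0, tab_ok_8_1, tab_ok_8_2, tab_ok_8_3]) (by norm_num)
  · exact allR_blocks _ 3510 10 4 (by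
      intro k hk
      interval_cases k
      exacts [tab_ok_9_0, tab_ok_9_1, tab_ok_9_2, tab_ok_9_3]) (by norm_num)
  · exact allR_blocks _ 3510 10 4 (by
      intro k hk
      interval_cases k
      exacts [tab_ok_10_0, tab_ok_10_1, tab_ok_10_2, tab_ok_10_3]) (by norm_num)
  · exact allR_blocks _ 3510 10 4 (by
      intro k hk
      interval_cases k
      exacts [tab_ok_11_0, tab_ok_11_1, tab_ok_11_2, tab_ok_11_3]) (by norm_num)
  · exact allR_blocks _ 3510 10 4 (by
      intro k hk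
      interval_cases k
      exacts [tab_ok_12_0, tab_ok_12_1, tab_ok_12_2, tab_ok_12_3]) (by norm_num)
  · exact allR_blocks _ 3510 10 4 (by
      intro k hk
      interval_cases k
      exacts [tab_ok_13_0, tab_ok_13_1, tab_ok_13_2, tab_ok_13_3]) (by norm_num)

theorem el_Rl {m : ℕ} (hm : m < 14) : Rl (elG m) (elF m) := by
  refine (Rl.word _).congr (fun p hp => ?_)
  have h := tab_all m hm p hp
  exact (Nat.eq_of_beq_eq_true h).symm

theorem gen_mem (x : Fi22.Gen) (hx : x ≠ .a) : fi22_gen x ∈ Ho := by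
  have e : fi22_gen x = uw fi22_gen [x] := by rw [uw_cons, uw_nil, mul_one]
  rw [e]
  refine Subgroup.subset_closure ⟨[x], ?_, rfl⟩
  cases x <;> first | exact absurd rfl hx | decide

theorem uw_mem (w : List Fi22.Gen) (h : noA w = true) : uw fi22_gen w ∈ Ho := by
  induction w with
  | nil => rw [uw_nil]; exact Ho.one_mem
  | cons x w ih =>
    unfold noA at h
    rw [List.all_cons, Bool.and_eq_true] at h
    rw [uw_cons]
    refine Ho.mul_mem (gen_mem x ?_) (ih h.2)
    rintro rfl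
    exact absurd h.1 (by decide)

theorem el_mem (m : ℕ) : elG m ∈ Ho := by
  unfold elG
  rcases getD_mem_or wEl m [] with h | h
  · exact uw_mem _ (List.all_eq_true.1 noA_ok _ h)
  · rw [h, uw_nil]; exact Ho.one_mem

/-! ## normal forms -/

/-- the normal form `a₁^{e₁} ⋯ aₙ^{eₙ}` with digits `E` -/
noncomputable def nfG (n E : ℕ) : Fi22 := nfProd elG (fun i => E / 3 ^ i % 3) n

theorem appK_Rl {m : ℕ} (hm : m < 14) {k : ℕ} (hk : k < 3) : Rl (elG m ^ k) (appK m k) := by
  interval_cases k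
  · rw [pow_zero]; exact Rl.one
  · rw [pow_one]; exact el_Rl hm
  · rw [pow_two]; exact (el_Rl hm).mul (el_Rl hm)

theorem nf_Rl : ∀ n, n ≤ 9 → ∀ E, Rl (nfG n E) (nfFn n E)
  | 0, _, _ => Rl.one
  | n + 1, hn, E => by
    have h1 := nf_Rl n (by omega) E
    have h2 : Rl (elG n ^ (E / 3 ^ n % 3)) (appK n (E / 3 ^ n % 3)) :=
      appK_Rl (by omega) (Nat.mod_lt _ (by norm_num))
    refine (h1.mul h2).congr (fun p _ => ?_)
    show appK n (E / 3 ^ n % 3) (nfFn n E p) = nfFn (n + 1) E p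
    rw [nfFn, frcN_eq]

theorem nfF_Rl (E : ℕ) : Rl (nfG 9 E) (nfF E) := nf_Rl 9 le_rfl E

/-- the Sylow 3-subgroup -/
noncomputable def Psyl : Subgroup Fi22 := Subgroup.closure (elG '' Set.Iio 9)

theorem nfProd_mem (a : ℕ → Fi22) (e : ℕ → ℕ) :
    ∀ n, nfProd a e n ∈ Subgroup.closure (a '' Set.Iio n)
  | 0 => Subgroup.one_mem _
  | n + 1 => Subgroup.mul_mem _
      (Subgroup.closure_mono (Set.image_mono (Set.Iio_subset_Iio (Nat.le_succ n)))
        (nfProd_mem a e n))
      (Subgroup.pow_mem _ (Subgroup.subset_closure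
        (Set.mem_image_of_mem a (Set.mem_Iio.2 (Nat.lt_succ_self n)))) _)

theorem nfG_mem (E : ℕ) : nfG 9 E ∈ Psyl := nfProd_mem _ _ 9

theorem Psyl_le : Psyl ≤ Ho := by
  unfold Psyl
  rw [Subgroup.closure_le]
  rintro _ ⟨i, -, rfl⟩
  exact el_mem i

theorem pc_h3 : ∀ i, i < 9 → elG i ^ 3 ∈ Subgroup.closure (elG '' Set.Iio i) := by
  intro i hi
  have hc := List.all_eq_true.1 pc_ok i (List.mem_range.2 hi)
  rw [Bool.and_eq_true] at hc
  have e : elG i ^ 3 = 1 := by
    have hr : Rl (elG i ^ 3) (fun p => elF i (elF i (elF i p))) := by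
      have h3 := ((el_Rl (by omega : i < 14)).mul (el_Rl (by omega : i < 14))).mul
        (el_Rl (by omega : i < 14))
      rw [pow_succ, pow_two]
      exact h3
    exact hr.eq Rl.one (fun b hb => Nat.eq_of_beq_eq_true (List.all_eq_true.1 hc.1 b hb))
  rw [e]
  exact Subgroup.one_mem _

theorem pc_hc : ∀ i, i < 9 → ∀ j, j < i →
    elG i * elG j * (elG i)⁻¹ ∈ Subgroup.closure (elG '' Set.Iio i) := by
  intro i hi j hj
  have hc := List.all_eq_true.1 pc_ok i (List.mem_range.2 hi)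
  rw [Bool.and_eq_true] at hc
  have hc2 := List.all_eq_true.1 hc.2 j (List.mem_range.2 hj)
  have e : elG i * elG j = nfG i (pcE i j) * elG i :=
    ((el_Rl (by omega : i < 14)).mul (el_Rl (by omega : j < 14))).eq
      ((nf_Rl i (by omega) _).mul (el_Rl (by omega : i < 14)))
      (fun b hb => Nat.eq_of_beq_eq_true (List.all_eq_true.1 hc2 b hb))
  have e2 : elG i * elG j * (elG i)⁻¹ = nfG i (pcE i j) := by rw [e, mul_inv_cancel_right]
  rw [e2]
  exact nfProd_mem _ _ i

theorem P_nf : ∀ g ∈ Psyl, ∃ E, E < 19683 ∧ g = nfG 9 E := by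
  intro g hg
  obtain ⟨E, hE, e⟩ := Cfsg.Agent.H40.O7G.pc_normal_form_digits elG 9 pc_h3 pc_hc g hg
  exact ⟨E, by norm_num at hE; exact hE, e⟩

/-! ## the normal forms are distinct -/

theorem sort_all : ∀ k, k < 19682 → sortChk k = true :=
  allR_blocks sortChk 19682 12 5 (by
    intro k hk
    interval_cases k
    exacts [sort_ok2_0, sort_ok2_1, sort_ok2_2, sort_ok2_3, sort_ok2_4]) (by norm_num)

theorem key_step {k : ℕ} (hk : k < 19682) : keyF (piF k) < keyF (piF (k + 1)) := by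
  have h := sort_all k hk
  unfold sortChk at h
  rw [frcN_eq, frcN_eq] at h
  exact Nat.blt_eq.mp h

theorem key_mono : ∀ d k, k + d + 1 < 19683 → keyF (piF k) < keyF (piF (k + d + 1))
  | 0, k, h => key_step (by omega)
  | d + 1, k, h => lt_trans (key_mono d k (by omega)) (key_step (by omega))

theorem key_lt {k l : ℕ} (hkl : k < l) (hl : l < 19683) : keyF (piF k) < keyF (piF l) := by
  have h := key_mono (l - k - 1) k (by omega)
  have e : k + (l - k - 1) + 1 = l := by omega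
  rwa [e] at h

theorem sg_spec {E : ℕ} (hE : E < 19683) : sgF E < 19683 ∧ piF (sgF E) = E := by
  have h := allR_all _ 19683 15 (by norm_num) sort_ok1 E hE
  unfold sgChk at h
  rw [frcN_eq, Bool.and_eq_true] at h
  exact ⟨Nat.blt_eq.mp h.1, Nat.eq_of_beq_eq_true h.2⟩

theorem key_inj {E E' : ℕ} (hE : E < 19683) (hE' : E' < 19683) (h : keyF E = keyF E') :
    E = E' := by
  obtain ⟨l1, e1⟩ := sg_spec hE
  obtain ⟨l2, e2⟩ := sg_spec hE'
  rcases lt_trichotomy (sgF E) (sgF E') with hlt | heq | hgt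
  · have := key_lt hlt l2
    rw [e1, e2, h] at this
    exact absurd this (lt_irrefl _)
  · rw [← e1, ← e2, heq]
  · have := key_lt hgt l1
    rw [e1, e2, h] at this
    exact absurd this (lt_irrefl _)

theorem nfG_inj {E E' : ℕ} (hE : E < 19683) (hE' : E' < 19683) (h : nfG 9 E = nfG 9 E') :
    E = E' := by
  apply key_inj hE hE'
  have key : ∀ p, p < 3510 → nfF E p = nfF E' p := by
    intro p hp
    have a : ((rho (nfG 9 E))⁻¹ ⟨p, hp⟩).val = nfF E p := nfF_Rl E ⟨p, hp⟩
    have b : ((rho (nfG 9 E'))⁻¹ ⟨p, hp⟩).val = nfF E' p := nfF_Rl E' ⟨p, hp⟩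
    rw [h] at a
    exact a.symm.trans b
  unfold keyF
  rw [key 2 (by norm_num), key 4 (by norm_num), key 7 (by norm_num)]

theorem card_Psyl : Nat.card Psyl = 3 ^ 9 := by
  have hbij : Function.Bijective
      (fun E : Fin 19683 => (⟨nfG 9 E.val, nfG_mem E.val⟩ : Psyl)) := by
    constructor
    · intro E E' h
      dsimp only at h
      rw [Subtype.mk.injEq] at h
      exact Fin.ext (nfG_inj E.isLt E'.isLt h)
    · rintro ⟨g, hg⟩
      obtain ⟨E, hE, e⟩ := P_nf g hg
      exact ⟨⟨E, hE⟩, Subtype.ext e.symm⟩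
  have h1 := Nat.card_eq_of_bijective _ hbij
  have h2 : Nat.card (Fin 19683) = 19683 := Nat.card_fin 19683
  rw [← h1, h2]
  norm_num

theorem nfG_zero : nfG 9 0 = 1 := by
  have key : ∀ n, nfG n 0 = 1 := by
    intro n
    induction n with
    | zero => rfl
    | succ n ih =>
      show nfProd elG (fun i => 0 / 3 ^ i % 3) n * elG n ^ (0 / 3 ^ n % 3) = 1
      have e : nfProd elG (fun i => 0 / 3 ^ i % 3) n = 1 := ih
      rw [e, Nat.zero_div, Nat.zero_mod, pow_zero, mul_one]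
  exact key 9

attribute [irreducible] nfG

end Cfsg.Agent.H10.O7C
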