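import Cfsg.Agent.H10.O7C.Fusion
import Cfsg.Agent.H40.O7Cls
import Cfsg.Agent.H40.O7Syl
import Cfsg.Agent.H70.SubClassesTransport

/-!
# S5514: `Ω₇(3)` has exactly seven classes of subgroups of order 3 (helper10)
-/

set_option autoImplicit false

namespace Cfsg.Agent.H10.O7C

open Cfsg Cfsg.Agent.H35 Cfsg.Spor Cfsg.Agent.H10 Cfsg.Agent.H10.O7T

theorem main_Ho : ∃ Y : Fin 7 → Subgroup ↥Ho, (∀ i, Nat.card (Y i) = 3) ∧
    (∀ i j, (∃ g : ↥Ho, (Y i).map (MulAut.conj g).toMonoidHom = Y j) → i = j) ∧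
    (∀ X : Subgroup ↥Ho, Nat.card X = 3 →
      ∃ i, ∃ g : ↥Ho, X.map (MulAut.conj g).toMonoidHom = Y i) := by
  haveI : Fact (Nat.Prime 3) := ⟨by norm_num⟩
  have hy3 : ∀ j : Fin 7, nfG 9 (rootL.getD j.val 0) ∈ Ho := fun j => Psyl_le (nfG_mem _)
  refine Cfsg.Agent.H40.O7G.classes_of_order_three 7
    (fun j => (⟨nfG 9 (rootL.getD j.val 0), hy3 j⟩ : ↥Ho)) (fun k : ↥Ho => invA k.1) ?_ ?_ ?_ ?_
  · intro j
    obtain ⟨c3, c1, -, -⟩ := root_spec j.isLt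
    refine orderOf_eq_prime ?_ ?_
    · apply Subtype.ext
      rw [Subgroup.coe_pow]
      exact c3
    · intro h0
      exact c1 (congrArg Subtype.val h0)
  · intro g h
    exact invA_conj g.1 h.1 g.2 h.2
  · intro i j hij
    obtain ⟨-, -, ci, -⟩ := root_spec i.isLt
    obtain ⟨-, -, cj, cj2⟩ := root_spec j.isLt
    apply invL_inj
    rcases hij with h | h
    · exact ci.symm.trans (h.trans cj)
    · exact ci.symm.trans (h.trans cj2)
  · intro x hx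
    have hcard : Nat.card (Psyl.subgroupOf Ho) = 3 ^ 9 := by
      rw [← card_Psyl]
      exact Nat.card_congr (Subgroup.subgroupOfEquivOfLe Psyl_le).toEquiv
    have hG : ¬ 3 ^ (9 + 1) ∣ Nat.card ↥Ho := by
      rw [card_Ho]
      norm_num
    obtain ⟨h0, hP⟩ := Cfsg.Agent.H40.O7G.conj_mem_of_sylow_card 3 9 (Psyl.subgroupOf Ho)
      hcard hG x hx
    have hP' : (h0 * x * h0⁻¹ : ↥Ho).1 ∈ Psyl := Subgroup.mem_subgroupOf.1 hP
    have hx3 : x ^ 3 = 1 := by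
      rw [← hx]
      exact pow_orderOf_eq_one x
    have hx1 : x ≠ 1 := by
      rintro rfl
      rw [orderOf_one] at hx
      exact absurd hx (by norm_num)
    have h3 : (h0 * x * h0⁻¹ : ↥Ho).1 ^ 3 = 1 := by
      rw [← Subgroup.coe_pow, conj_pow, hx3, mul_one, mul_inv_cancel]
      rfl
    have h1 : (h0 * x * h0⁻¹ : ↥Ho).1 ≠ 1 := by
      intro h
      exact hx1 (conj_eq_one_iff.1 (Subtype.ext h))
    obtain ⟨j, hj, h, hh, e⟩ := conj_root _ hP' h3 h1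
    refine ⟨⟨j, hj⟩, ⟨h, hh⟩ * h0, Subtype.ext ?_⟩
    show h * h0.1 * x.1 * (h * h0.1)⁻¹ = nfG 9 (rootL.getD j 0)
    rw [← e]
    show h * h0.1 * x.1 * (h * h0.1)⁻¹ = h * (h0.1 * x.1 * h0.1⁻¹) * h⁻¹
    group

/-- `Ω₇(3)` has exactly seven conjugacy classes of subgroups of order 3 -/
theorem main_O7 : ∃ Y : Fin 7 → Subgroup (Cfsg.POmega (ZMod 3) (Cfsg.quadFormOdd 3 (ZMod 3))),
    (∀ i, Nat.card (Y i) = 3) ∧
    (∀ i j, (∃ g : Cfsg.POmega (ZMod 3) (Cfsg.quadFormOdd 3 (ZMod 3)),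
      (Y i).map (MulAut.conj g).toMonoidHom = Y j) → i = j) ∧
    (∀ X : Subgroup (Cfsg.POmega (ZMod 3) (Cfsg.quadFormOdd 3 (ZMod 3))), Nat.card X = 3 →
      ∃ i, ∃ g : Cfsg.POmega (ZMod 3) (Cfsg.quadFormOdd 3 (ZMod 3)),
        X.map (MulAut.conj g).toMonoidHom = Y i) := by
  rw [← Cfsg.Agent.H7.qOdd_coe]
  obtain ⟨e⟩ := o7_main
  exact Cfsg.Agent.H70.SubClassesTransport.sub_classes_transport e 7 3 main_Ho

end Cfsg.Agent.H10.O7C
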