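import Cfsg.Agent.H10.O7C.Elts
import Cfsg.Agent.H16.PermInv

/-!
# S5514: the elements of order 3 of the Sylow 3-subgroup fall into seven classes, and the
two invariants separating them (helper10)
-/

set_option autoImplicit false

namespace Cfsg.Agent.H10.O7C

open Cfsg Cfsg.Agent.H35 Cfsg.Spor Cfsg.Agent.H10 Cfsg.Agent.H10.O7T
open Cfsg.Agent.H9.J2 (frcN frcN_eq)
open Cfsg.Agent.H40.O7G (nfProd)

/-! ## the fusion forest -/

theorem chk_all : ∀ E, E < 19683 → chk E = true :=
  allR_blocks chk 19683 12 5 (by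
    intro k hk
    interval_cases k
    exacts [cert_ok_0, cert_ok_1, cert_ok_2, cert_ok_3, cert_ok_4]) (by norm_num)

/-- the normal form, if of order 3, is conjugate to a representative -/
def Good (E : ℕ) : Prop :=
  nfG 9 E ^ 3 = 1 → nfG 9 E ≠ 1 →
    ∃ j, j < 7 ∧ ∃ h ∈ Ho, h * nfG 9 E * h⁻¹ = nfG 9 (rootL.getD j 0)

theorem good_of_conj {E par : ℕ} (s : Fi22) (hs : s ∈ Ho)
    (e' : nfG 9 par = s * nfG 9 E * s⁻¹) (hpar : Good par) : Good E := by
  intro h3 h1
  have g3 : nfG 9 par ^ 3 = 1 := by rw [e', conj_pow, h3, mul_one, mul_inv_cancel]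
  have g1 : nfG 9 par ≠ 1 := by
    rw [e']
    exact fun h0 => h1 (conj_eq_one_iff.1 h0)
  obtain ⟨j, hj, h, hh, eh⟩ := hpar g3 g1
  refine ⟨j, hj, h * s, Ho.mul_mem hh hs, ?_⟩
  rw [← eh, e']
  group

theorem cube_Rl (E : ℕ) : Rl (nfG 9 E ^ 3) (fun p => nfF E (nfF E (nfF E p))) := by
  have h3 := ((nfF_Rl E).mul (nfF_Rl E)).mul (nfF_Rl E)
  rw [pow_succ, pow_two]
  exact h3

theorem good_all : ∀ d E, E < 19683 → depF E = d → Good E := by
  intro d
  induction d using Nat.strong_induction_on with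
  | _ d ih =>
    intro E hE hd
    have hc := chk_all E hE
    unfold chk at hc
    simp only [frcN_eq, Bool.or_eq_true, Bool.and_eq_true] at hc
    rcases hc with ⟨-, h⟩ | ⟨-, h⟩ | ⟨-, h⟩ | ⟨-, h⟩ | ⟨-, h⟩
    · -- the identity
      intro _ h1
      exfalso
      have hE0 : E = 0 := Nat.eq_of_beq_eq_true h
      rw [hE0] at h1
      exact h1 nfG_zero
    · -- the cube moves a base point
      intro h3 _
      exfalso
      have hlt : basePts.getD (ceF E / 16 % 16) 976 < 3510 := by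
        rcases getD_mem_or basePts (ceF E / 16 % 16) 976 with hm | hm
        · generalize basePts.getD (ceF E / 16 % 16) 976 = b at hm
          simp [basePts] at hm
          omega
        · rw [hm]
          norm_num
      have hne : nfF E (nfF E (nfF E (basePts.getD (ceF E / 16 % 16) 976))) ≠
          basePts.getD (ceF E / 16 % 16) 976 := by
        intro he
        rw [he, Nat.beq_refl] at h
        exact absurd h (by decide)
      exact (cube_Rl E).ne_one hlt hne h3
    · -- a representative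
      intro _ _
      have e := Nat.eq_of_beq_eq_true h
      have hj : ceF E / 16 % 16 < 7 := by
        by_contra hge
        rw [List.getD_eq_default _ _ (by simp [rootL]; omega)] at e
        omega
      have e0 : rootL.getD (ceF E / 16 % 16) 0 = E := by
        rw [List.getD_eq_getElem _ _ (by simp [rootL]; exact hj)]
        rw [List.getD_eq_getElem _ _ (by simp [rootL]; exact hj)] at e
        exact e
      refine ⟨ceF E / 16 % 16, hj, 1, Ho.one_mem, ?_⟩
      rw [e0, one_mul, inv_one, mul_one]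
    · -- `s * g = g' * s`
      obtain ⟨hp, hdep, hm, hb⟩ := h
      have hp' : ceF E / 65536 < 19683 := Nat.blt_eq.mp hp
      have hdep' : depF (ceF E / 65536) < depF E := Nat.blt_eq.mp hdep
      have hm' : ceF E / 16 % 16 < 14 := Nat.blt_eq.mp hm
      have e : elG (ceF E / 16 % 16) * nfG 9 E = nfG 9 (ceF E / 65536) * elG (ceF E / 16 % 16) :=
        ((el_Rl hm').mul (nfF_Rl E)).eq ((nfF_Rl _).mul (el_Rl hm'))
          (fun b hbm => Nat.eq_of_beq_eq_true (List.all_eq_true.1 hb b hbm))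
      refine good_of_conj (E := E) (par := ceF E / 65536) (elG (ceF E / 16 % 16)) (el_mem _) ?_
        (ih _ (by rw [← hd]; exact hdep') _ hp' rfl)
      rw [e, mul_inv_cancel_right]
    · -- `s * g' = g * s`
      obtain ⟨hp, hdep, hm, hb⟩ := h
      have hp' : ceF E / 65536 < 19683 := Nat.blt_eq.mp hp
      have hdep' : depF (ceF E / 65536) < depF E := Nat.blt_eq.mp hdep
      have hm' : ceF E / 16 % 16 < 14 := Nat.blt_eq.mp hm
      have e : elG (ceF E / 16 % 16) * nfG 9 (ceF E / 65536) = nfG 9 E * elG (ceF E / 16 % 16) :=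
        ((el_Rl hm').mul (nfF_Rl _)).eq ((nfF_Rl E).mul (el_Rl hm'))
          (fun b hbm => Nat.eq_of_beq_eq_true (List.all_eq_true.1 hb b hbm))
      refine good_of_conj (E := E) (par := ceF E / 65536) (elG (ceF E / 16 % 16))⁻¹
        (Ho.inv_mem (el_mem _)) ?_ (ih _ (by rw [← hd]; exact hdep') _ hp' rfl)
      rw [inv_inv, mul_assoc, ← e, inv_mul_cancel_left]

/-- every element of order 3 of the Sylow subgroup is conjugate to a representative -/
theorem conj_root (x : Fi22) (hx : x ∈ Psyl) (h3 : x ^ 3 = 1) (h1 : x ≠ 1) :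
    ∃ j, j < 7 ∧ ∃ h ∈ Ho, h * x * h⁻¹ = nfG 9 (rootL.getD j 0) := by
  obtain ⟨E, hE, rfl⟩ := P_nf x hx
  exact good_all _ E hE rfl h3 h1

/-! ## the relation on the 351 points is invariant -/

theorem r_all : ∀ k, k < 123201 → rChk k = true :=
  allR_blocks rChk 123201 12 31 (by
    intro k hk
    interval_cases k
    exacts [r_ok_0, r_ok_1, r_ok_2, r_ok_3, r_ok_4, r_ok_5, r_ok_6, r_ok_7, r_ok_8, r_ok_9, r_ok_10, r_ok_11, r_ok_12, r_ok_13, r_ok_14, r_ok_15, r_ok_16, r_ok_17, r_ok_18, r_ok_19, r_ok_20, r_ok_21, r_ok_22, r_ok_23, r_ok_24, r_ok_25, r_ok_26, r_ok_27, r_ok_28, r_ok_29, r_ok_30]) (by norm_num)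

theorem gI_spec {x i : ℕ} (hx : x < 8) (hi : i < 351) :
    gI x i = bIN (t1687_pd.walk (t1685_sw.getD x []) (bON i)) := by
  have h := allR_all _ 351 9 (by norm_num) g_ok i hi
  unfold gChk at h
  exact Nat.eq_of_beq_eq_true (List.all_eq_true.1 h x (List.mem_range.2 hx))

theorem rB_gen {x i j : ℕ} (hx : x < 8) (hi : i < 351) (hj : j < 351) :
    rB (gI x i) (gI x j) = rB i j := by
  have h := r_all (351 * i + j) (by omega)
  unfold rChk at h
  rw [frcN_eq, frcN_eq] at h
  have e1 : (351 * i + j) / 351 = i := by omega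
  have e2 : (351 * i + j) % 351 = j := by omega
  rw [e1, e2] at h
  have h2 := List.all_eq_true.1 h x (List.mem_range.2 hx)
  revert h2
  unfold beqB
  cases rB (gI x i) (gI x j) <;> cases rB i j <;> simp

/-- the elements preserving the 351 points and the relation on them -/
def relSub : Subgroup Fi22 where
  carrier := {g | (∀ x : Fin t1687_pd.N, bIN (rho g x).val < 351 ↔ bIN x.val < 351) ∧
    ∀ x y : Fin t1687_pd.N, bIN x.val < 351 → bIN y.val < 351 →
      rB (bIN (rho g x).val) (bIN (rho g y).val) = rB (bIN x.val) (bIN y.val)}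
  one_mem' := ⟨fun x => by rw [map_one]; rfl, fun x y _ _ => by rw [map_one]; rfl⟩
  mul_mem' := fun {a b} ha hb =>
    ⟨fun x => by
      rw [map_mul, Equiv.Perm.mul_apply]
      exact (ha.1 _).trans (hb.1 x),
    fun x y hx hy => by
      rw [map_mul, Equiv.Perm.mul_apply, Equiv.Perm.mul_apply,
        ha.2 _ _ ((hb.1 x).2 hx) ((hb.1 y).2 hy), hb.2 x y hx hy]⟩
  inv_mem' := fun {a} ha => by
    have key : ∀ x : Fin t1687_pd.N, rho a (rho a⁻¹ x) = x := fun x => by
      rw [← Equiv.Perm.mul_apply, ← map_mul, mul_inv_cancel, map_one]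
      rfl
    have hS : ∀ x : Fin t1687_pd.N, bIN (rho a⁻¹ x).val < 351 ↔ bIN x.val < 351 := fun x => by
      have h := ha.1 (rho a⁻¹ x)
      rw [key] at h
      exact h.symm
    refine ⟨hS, fun x y hx hy => ?_⟩
    have h := ha.2 _ _ ((hS x).2 hx) ((hS y).2 hy)
    rw [key, key] at h
    exact h.symm

theorem Ho_le_relSub : Ho ≤ relSub := by
  rw [Subgroup.closure_le]
  rintro _ ⟨w, hwm, rfl⟩
  have h1 : (uw fi22_gen w)⁻¹ ∈ relSub := by
    have hmem : (uw fi22_gen w)⁻¹ ∈ Ho := Ho.inv_mem (Subgroup.subset_closure ⟨w, hwm, rfl⟩)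
    obtain ⟨x, hx, rfl⟩ : ∃ x, x < 8 ∧ w = t1685_sw.getD x [] := by
      obtain ⟨n, hn, e⟩ := List.mem_iff_getElem.1 hwm
      exact ⟨n, hn, by rw [List.getD_eq_getElem _ _ hn]; exact e.symm⟩
    have hval : ∀ p : Fin t1687_pd.N, bIN p.val < 351 →
        bIN (rho (uw fi22_gen (t1685_sw.getD x []))⁻¹ p).val = gI x (bIN p.val) := by
      intro p hp
      rw [map_inv, ← rho_walk, gI_spec hx hp, B2 p.val p.isLt hp]
    refine ⟨fun p => inv_O _ hmem p, fun p q hp hq => ?_⟩
    rw [hval p hp, hval q hq, rB_gen hx hp hq]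
  have h2 := relSub.inv_mem h1
  rwa [inv_inv] at h2

/-! ## the two invariants -/

/-- the number of fixed points, and the number of the 351 points orthogonal to their image -/
noncomputable def invA (g : Fi22) : ℕ × ℕ :=
  (Nat.card {x : Fin t1687_pd.N // (rho g)⁻¹ x = x},
    Nat.card {x : Fin t1687_pd.N //
      bIN x.val < 351 ∧ rB (bIN x.val) (bIN ((rho g)⁻¹ x).val) = true})

theorem invA_conj (g h : Fi22) (hg : g ∈ Ho) (hh : h ∈ Ho) : invA (h * g * h⁻¹) = invA g := by
  unfold invA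
  rw [Cfsg.Agent.H16.PermInv.card_fixed_conj rho g h]
  rw [Cfsg.Agent.H16.PermInv.card_rel_conj rho Ho (fun x => bIN x.val < 351)
    (fun x y => rB (bIN x.val) (bIN y.val) = true)
    (fun k hk x hx => (inv_O k hk x).2 hx)
    (fun k hk x y hx hy hr => by rw [(Ho_le_relSub hk).2 x y hx hy]; exact hr) g h hg hh]

theorem card_sub_eq (P : Fin t1687_pd.N → Prop) (f : ℕ → Bool)
    (h : ∀ x : Fin t1687_pd.N, P x ↔ f x.val = true) :
    Nat.card {x : Fin t1687_pd.N // P x} = cntR f 3510 12 0 := by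
  classical
  have h1 := card_filter_fin f t1687_pd.N 12 (by decide)
  rw [Nat.card_eq_fintype_card, Fintype.card_subtype]
  refine Eq.trans (congrArg Finset.card (Finset.filter_congr (fun x _ => h x))) ?_
  exact h1

theorem invA_eq {g : Fi22} {F : ℕ → ℕ} (hg : Rl g F) : invA g = (inv1F F, inv2F F) := by
  unfold invA inv1F inv2F
  refine Prod.ext ?_ ?_
  · refine card_sub_eq _ (fun p => Nat.beq (F p) p) (fun x => ?_)
    rw [Nat.beq_eq, ← hg x, Fin.ext_iff]
  · refine card_sub_eq _ (fun p => Nat.blt (bIN p) 351 && rB (bIN p) (bIN (F p))) (fun x => ?_)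
    rw [hg x, Bool.and_eq_true, Nat.blt_eq]

/-- the representatives have order 3 and the listed invariants -/
theorem root_spec {j : ℕ} (hj : j < 7) :
    nfG 9 (rootL.getD j 0) ^ 3 = 1 ∧ nfG 9 (rootL.getD j 0) ≠ 1 ∧
      invA (nfG 9 (rootL.getD j 0)) = invL.getD j (0, 0) ∧
      invA (nfG 9 (rootL.getD j 0) ^ 2) = invL.getD j (0, 0) := by
  have h : rootChk j = true := by
    interval_cases j
    exacts [root_ok_0, root_ok_1, root_ok_2, root_ok_3, root_ok_4, root_ok_5, root_ok_6]
  unfold rootChk at h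
  rw [frcN_eq] at h
  simp only [Bool.and_eq_true] at h
  obtain ⟨c1, c2, c3, c4, c5, c6⟩ := h
  refine ⟨?_, ?_, ?_, ?_⟩
  · exact (cube_Rl _).eq Rl.one
      (fun b hb => Nat.eq_of_beq_eq_true (List.all_eq_true.1 c1 b hb))
  · refine (nfF_Rl _).ne_one (p := 976) (by norm_num) (fun he => ?_)
    rw [he, Nat.beq_refl] at c2
    exact absurd c2 (by decide)
  · rw [invA_eq (nfF_Rl _)]
    exact Prod.ext (Nat.eq_of_beq_eq_true c3) (Nat.eq_of_beq_eq_true c4)
  · have hr : Rl (nfG 9 (rootL.getD j 0) ^ 2)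
        (fun p => nfF (rootL.getD j 0) (nfF (rootL.getD j 0) p)) := by
      rw [pow_two]
      exact (nfF_Rl _).mul (nfF_Rl _)
    rw [invA_eq hr]
    exact Prod.ext (Nat.eq_of_beq_eq_true c5) (Nat.eq_of_beq_eq_true c6)

theorem invL_inj : ∀ i j : Fin 7, invL.getD i.val (0, 0) = invL.getD j.val (0, 0) → i = j := by
  decide

end Cfsg.Agent.H10.O7C
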